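import Cfsg.Agent.ChevalleyStructure.G2Sym
import Cfsg.Agent.ChevalleyStructure.Elts
import Cfsg.Agent.H96.WeakClosedG2

/-!
# Long and short root elements of `G₂` in characteristic three are not conjugate (helper583, S4114)
-/

set_option autoImplicit false
set_option linter.unusedSectionVars false

namespace Cfsg.Agent.H583.GtConj

open Cfsg Cfsg.Lie Cfsg.Agent.ChevalleyStructure.Elts Cfsg.Agent.ChevalleyStructure
  Cfsg.Agent.ChevalleyStructure.G2Sym Cfsg.Agent.H96.WeakClosed

universe u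

variable {F : Type u} [Field F]

/-- the coordinate of a root -/
def ir (r : Fin 12) : chevG2.Idx := Sum.inr r

/-- the entries of `(x_r(t) - 1)²` -/
def sq (r : Fin 12) (t : F) (i j : chevG2.Idx) : F :=
  evU (2 * t) (sel r.val (flat i) (flat j)) - 2 * evU t (sel r.val (flat i) (flat j)) + if i = j then 1 else 0

theorem sq_eq (r : Fin 12) (t : F) :
    ((xG inListG2 (r : ℕ) t : GL chevG2.Idx F) : Matrix chevG2.Idx chevG2.Idx F) *
        ((xG inListG2 (r : ℕ) t : GL chevG2.Idx F) : Matrix chevG2.Idx chevG2.Idx F) -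
      2 • ((xG inListG2 (r : ℕ) t : GL chevG2.Idx F) : Matrix chevG2.Idx chevG2.Idx F) + 1 =
      Matrix.of (sq r t) := by
  have h1 : ((xG inListG2 (r : ℕ) t : GL chevG2.Idx F) : Matrix chevG2.Idx chevG2.Idx F) *
      ((xG inListG2 (r : ℕ) t : GL chevG2.Idx F) : Matrix chevG2.Idx chevG2.Idx F) =
      ((xG inListG2 (r : ℕ) (2 * t) : GL chevG2.Idx F) : Matrix chevG2.Idx chevG2.Idx F) := by
    rw [← Units.val_mul, xG_add, two_mul]
  rw [h1]
  ext i j
  rw [Matrix.add_apply, Matrix.sub_apply, Matrix.smul_apply, coe_xG, coe_xG, x_of_lt (show (r : ℕ) < chevG2.nroots from r.2),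
    x_of_lt (show (r : ℕ) < chevG2.nroots from r.2), Matrix.one_apply]
  have h2 := xMat_apply (F := F) r (2 * t) i j
  have h3 := xMat_apply (F := F) r t i j
  show chevG2.xMat F r (2 * t) i j - 2 • chevG2.xMat F r t i j + (if i = j then 1 else 0) = sq r t i j
  rw [h2, h3, nsmul_eq_mul]
  rfl

theorem evU_lin (t : F) (L : List (ℕ × ℤ)) (h : ∀ c ∈ L, c.1 = 1) : evU (2 * t) L = 2 * evU t L := by
  induction L with
  | nil => simp [evU]
  | cons a L ih =>
    have h1 := ih fun c hc => h c (List.mem_cons_of_mem _ hc)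
    have h2 := h a List.mem_cons_self
    simp only [evU, List.map_cons, List.sum_cons] at h1 ⊢
    rw [h1, h2]
    ring

/-- the entries of `x_6(t) - 1`, except one, are linear -/
theorem lin_six : ∀ i j : chevG2.Idx, ¬ (flat i = 8 ∧ flat j = 7) →
    ∀ c ∈ (((col 6 (flat j)).filter fun c => decide (c.1 = flat i)).map fun c => c.2), c.1 = 1 := by
  decide +kernel

/-- `(x_6(t) - 1)²` has one entry only -/
theorem sq_six (t : F) (i j : chevG2.Idx) (h : ¬ (flat i = 8 ∧ flat j = 7)) : sq 6 t i j = 0 := by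
  have h1 := evU_lin t _ (lin_six i j h)
  have h6 : ((6 : Fin 12) : ℕ) = 6 := rfl
  unfold sq sel
  rw [evU_append, evU_append, h6, h1]
  by_cases hij : i = j
  · subst hij
    rw [if_pos rfl, if_pos rfl]
    simp [evU]
    ring
  · rw [if_neg fun h2 => hij (flat_injective h2), if_neg hij]
    simp [evU]

theorem sq_seven (t : F) : sq 7 t (ir 3) (ir 1) = -2 * t ^ 2 ∧
    sq 7 t (ir 9) (ir 6) = 2 * t ^ 2 ∧
    sq 7 t (ir 3) (ir 6) = 0 := by
  have e1 : sel 7 5 3 = [(2, -1)] := by decide +kernel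
  have e2 : sel 7 11 8 = [(2, 1)] := by decide +kernel
  have e3 : sel 7 5 8 = [] := by decide +kernel
  refine ⟨?_, ?_, ?_⟩
  · show evU (2 * t) (sel 7 5 3) - 2 * evU t (sel 7 5 3) + (if _ then 1 else 0) = _
    rw [e1, if_neg (by decide)]
    simp [evU]
    ring
  · show evU (2 * t) (sel 7 11 8) - 2 * evU t (sel 7 11 8) + (if _ then 1 else 0) = _
    rw [e2, if_neg (by decide)]
    simp [evU]
    ring
  · show evU (2 * t) (sel 7 5 8) - 2 * evU t (sel 7 5 8) + (if _ then 1 else 0) = _
    rw [e3, if_neg (by decide)]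
    simp [evU]

/-- **Long and short root elements are not conjugate** (characteristic not two). -/
theorem eq_zero_of_conj (h2 : (2 : F) ≠ 0) {g : GL chevG2.Idx F} {s t : F}
    (h : g * xG inListG2 6 s * g⁻¹ = xG inListG2 7 t) : t = 0 := by
  classical
  -- the squares
  set P : Matrix chevG2.Idx chevG2.Idx F := (g : Matrix chevG2.Idx chevG2.Idx F) with hP
  set Q : Matrix chevG2.Idx chevG2.Idx F := ((g⁻¹ : GL chevG2.Idx F) : Matrix chevG2.Idx chevG2.Idx F) with hQ
  have hPQ : P * Q = 1 := by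
    rw [hP, hQ, ← Units.val_mul, mul_inv_cancel]
    rfl
  have hQP : Q * P = 1 := by
    rw [hP, hQ, ← Units.val_mul, inv_mul_cancel]
    rfl
  have h6 := sq_eq (F := F) 6 s
  have h7 := sq_eq (F := F) 7 t
  have hx : ((xG inListG2 7 t : GL chevG2.Idx F) : Matrix chevG2.Idx chevG2.Idx F) =
      P * ((xG inListG2 6 s : GL chevG2.Idx F) : Matrix chevG2.Idx chevG2.Idx F) * Q := by
    rw [← h]
    rfl
  have h8 : Matrix.of (sq 7 t) = P * Matrix.of (sq (F := F) 6 s) * Q := by
    rw [← h6, ← h7]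
    show ((xG inListG2 7 t : GL chevG2.Idx F) : Matrix chevG2.Idx chevG2.Idx F) *
      ((xG inListG2 7 t : GL chevG2.Idx F) : Matrix chevG2.Idx chevG2.Idx F) -
      2 • ((xG inListG2 7 t : GL chevG2.Idx F) : Matrix chevG2.Idx chevG2.Idx F) + 1 = _
    rw [hx]
    show _ = P * (((xG inListG2 6 s : GL chevG2.Idx F) : Matrix chevG2.Idx chevG2.Idx F) *
      ((xG inListG2 6 s : GL chevG2.Idx F) : Matrix chevG2.Idx chevG2.Idx F) -
      2 • ((xG inListG2 6 s : GL chevG2.Idx F) : Matrix chevG2.Idx chevG2.Idx F) + 1) * Q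
    set A := ((xG inListG2 6 s : GL chevG2.Idx F) : Matrix chevG2.Idx chevG2.Idx F)
    calc P * A * Q * (P * A * Q) - 2 • (P * A * Q) + 1 = P * A * (Q * P) * A * Q - 2 • (P * A * Q) + P * Q := by
          rw [hPQ]; simp only [mul_assoc]
      _ = _ := by
          rw [hQP, mul_one, mul_add, mul_sub, add_mul, sub_mul, mul_one, mul_smul_comm, smul_mul_assoc]
          simp only [mul_assoc]
  -- the entries of the right side
  have hent : ∀ i j, sq 7 t i j = P i (ir 6) * sq 6 s (ir 6) (ir 5) *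
      Q (ir 5) j := by
    intro i j
    have h9 := congrFun (congrFun h8 i) j
    rw [Matrix.mul_apply] at h9
    have h10 : ∀ k, (P * Matrix.of (sq (F := F) 6 s)) i k * Q k j =
        if k = ir 5 then P i (ir 6) *
          sq 6 s (ir 6) (ir 5) * Q (ir 5) j else 0 := by
      intro k
      rw [Matrix.mul_apply]
      have h11 : ∀ m, P i m * (Matrix.of (sq (F := F) 6 s)) m k =
          if m = ir 6 then P i m * sq 6 s m k else 0 := by
        intro m
        by_cases hm : m = ir 6
        · rw [if_pos hm]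
          rfl
        · rw [if_neg hm]
          have : sq 6 s m k = 0 := sq_six s m k fun h => hm (flat_injective (h.1.trans (by decide)))
          show P i m * sq 6 s m k = 0
          rw [this, mul_zero]
      rw [Finset.sum_congr rfl fun m _ => h11 m, Finset.sum_ite_eq' Finset.univ, if_pos (Finset.mem_univ _)]
      by_cases hk : k = ir 5
      · rw [if_pos hk, hk]
      · rw [if_neg hk, sq_six s _ k fun h => hk (flat_injective (h.2.trans (by decide))), mul_zero, zero_mul]
    rw [Finset.sum_congr rfl fun k _ => h10 k, Finset.sum_ite_eq' Finset.univ, if_pos (Finset.mem_univ _)] at h9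
    exact h9
  obtain ⟨a1, a2, a3⟩ := sq_seven t
  have b1 := hent (ir 3) (ir 1)
  have b2 := hent (ir 9) (ir 6)
  have b3 := hent (ir 3) (ir 6)
  have b4 := hent (ir 9) (ir 1)
  rw [a1] at b1
  rw [a2] at b2
  rw [a3] at b3
  have h4 : (-2 * t ^ 2) * (2 * t ^ 2) = 0 := by
    rw [b1, b2]
    linear_combination (-1 : F) * (P (ir 9) (ir 6) *
      sq 6 s (ir 6) (ir 5) * Q (ir 5) (ir 1)) * b3
  have h5 : (2 * t ^ 2) * (2 * t ^ 2) = 0 := by linear_combination (-1 : F) * h4
  have h6' := mul_self_eq_zero.1 h5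
  exact (pow_eq_zero_iff two_ne_zero).1 ((mul_eq_zero.1 h6').resolve_left h2)

end Cfsg.Agent.H583.GtConj
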