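import Cfsg.Agent.H288.ElExc
import Cfsg.Agent.S2664
import Cfsg.Agent.S2156

/-!
# Automorphisms of odd prime order of `G₂(q)`, `F₄(q)`, `E₈(q)` (helper583, S4114)

* `outer_form` : an automorphism of odd prime order is inner, or a conjugate of some power of it (prime to the order)
  is a field automorphism `x_s(t) ↦ x_s(t ^ r ^ m)`.
-/

set_option autoImplicit false
set_option linter.unusedSectionVars false

namespace Cfsg.Agent.H583.OutForm

open CoxeterSystem Subgroup Cfsg Cfsg.Lie Cfsg.Lie.ChevalleyDatum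
open Cfsg.Agent.ChevalleyStructure Cfsg.Agent.ChevalleyStructure.Elts Cfsg.Agent.ChevalleyStructure.CoxeterGeom
  Cfsg.Agent.ChevalleyStructure.CoxeterGeomTypes Cfsg.Agent.ChevalleyStructure.NPerm
open Cfsg.Agent.Tits.Roots Cfsg.Agent.Tits.Core Cfsg.Agent.Nodes Cfsg.Agent.Nodes.Reps Cfsg.Agent.Nodes.BNOf
  Cfsg.Agent.Nodes.RGDChev Cfsg.Agent.Nodes.Bruhat Cfsg.Agent.Nodes.NormalForm
open Cfsg.Agent.KFacts.RgdField Cfsg.Agent.KFacts.RgdChevCoord
open Cfsg.Agent.GpExc.Field (glMap emb coe_emb glMap_xG emb_injective coe_glMap)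
open Cfsg.Agent.BpExc Cfsg.Agent.BpExc.TorCent Cfsg.Agent.BpExc.TorChev Cfsg.Agent.BpExc.Tow
open Cfsg.Agent.BpExc.TowChev Cfsg.Agent.BpExc.Fr Cfsg.Agent.BpExc.LangFr
open Cfsg.Agent.BpExc.FamUntw Cfsg.Agent.BpExc.FamInst Cfsg.Agent.BpExc.FamExt Cfsg.Agent.BpExc.FamField
open Cfsg.Agent.BpExc.RowsUntw
open Cfsg.Agent.H696.GmnToral Cfsg.Agent.H696.GmnUntw Cfsg.Agent.H696.GmnTor Cfsg.Agent.H696.GmnInv
open Cfsg.Agent.H520 Cfsg.Agent.H288.ElBase Cfsg.Agent.H288.ElExc
open Cfsg.Agent.CpAut.RgdUntw (SymTwo symTwo_G2 symTwo_F4 symTwo_E7 symTwo_E8)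
open Cfsg.Agent.H79.SimpleGen (xS)

universe u

theorem conj_ap {G : Type*} [Group G] (z x : G) : MulAut.conj z x = z * x * z⁻¹ := rfl

/-- the automorphisms of odd prime order -/
theorem outer_form {D : ChevalleyDatum} {l : ℕ} {M : CoxeterMatrix (Fin l)} (hp : IsType D l M) {r : ℕ}
    [Fact r.Prime] {F : Type} [Field F] [Fintype F] [CharP F r] {B : Fin l → Fin l → ℤ} (hB : InvC D l 1 B)
    (hM : SymTwo M)
    (hk1 : IsSimpleGroup ↥(D.group (AlgebraicClosure (ZMod r))) ∧ ¬ IsMulCommutative ↥(D.group (AlgebraicClosure (ZMod r))))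
    (hF1 : IsSimpleGroup ↥(D.group F) ∧ ¬ IsMulCommutative ↥(D.group F))
    {p : ℕ} (hpp : p.Prime) (hp2 : p ≠ 2) {x : MulAut ↥(D.group F)} (hxp : x ^ p = 1) :
    (∃ z : ↥(D.group F), x = MulAut.conj z) ∨
      ∃ (z : ↥(D.group F)) (i m : ℕ), i.Coprime p ∧ 0 < m ∧ Fintype.card F = (r ^ m) ^ p ∧
        ∀ (s : ℕ) (t : F), (MulAut.conj z * x ^ i * (MulAut.conj z)⁻¹) (xS hp.inList s t) =
          xS hp.inList s (t ^ r ^ m) := by
  obtain ⟨f⟩ := exists_emb r F
  obtain ⟨n, hn0, hn⟩ := exists_card (F := F) r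
  have hq : Fintype.card F = r ^ n := by rw [← hn, Nat.card_eq_fintype_card]
  have hk : LocFin (AlgebraicClosure (ZMod r)) := locFin_of_isAlgebraic r _
  have hZ := center_eq_bot_of_simple hk1
  rcases cases' hp hB one_ne_zero hM hk1 hF1 f hpp hp2 hn hxp with ⟨y, hyp, hyf, hy⟩ | ⟨i, m, hi, hm0, hmn, y, hy, hxi⟩
  · left
    obtain ⟨z, rfl⟩ := ind_adj hp hB one_ne_zero hZ f (Nat.coprime_one_right _) hq hyp hyf
    refine ⟨z, ?_⟩
    ext1 g
    apply emb_injective hp.inList f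
    rw [hy, MulAut.conj_apply, map_mul, map_mul, map_inv]
  · right
    obtain ⟨z, hz⟩ := lang_all hp M.toCoxeterSystem hm0 (phi_isFrob r m) (phi_fr hp M.toCoxeterSystem r hk m) 1 y
    rw [map_one, one_mul] at hz
    -- the form of the automorphism
    have h1 : MulAut.conj y * phi D (AlgebraicClosure (ZMod r)) r m =
        (MulAut.conj z)⁻¹ * phi D (AlgebraicClosure (ZMod r)) r m * MulAut.conj z := by
      rw [hz, map_mul, map_inv, ← aut_conj]
      group
    have h2 : (MulAut.conj z)⁻¹ * phi D (AlgebraicClosure (ZMod r)) r n * MulAut.conj z =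
        phi D (AlgebraicClosure (ZMod r)) r n := by
      have h3 : ∀ j : ℕ, ((MulAut.conj z)⁻¹ * phi D (AlgebraicClosure (ZMod r)) r m * MulAut.conj z) ^ j =
          (MulAut.conj z)⁻¹ * phi D (AlgebraicClosure (ZMod r)) r m ^ j * MulAut.conj z := by
        intro j
        induction j with
        | zero => simp
        | succ j ih => rw [pow_succ, ih, pow_succ]; group
      rw [h1, h3, phi_pow, hmn] at hy
      exact hy
    have h3 : phi D (AlgebraicClosure (ZMod r)) r n z = z := by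
      apply conj_inj hZ
      rw [← aut_conj]
      have h4 : phi D (AlgebraicClosure (ZMod r)) r n * MulAut.conj z =
          MulAut.conj z * phi D (AlgebraicClosure (ZMod r)) r n := by
        calc phi D (AlgebraicClosure (ZMod r)) r n * MulAut.conj z = MulAut.conj z *
              ((MulAut.conj z)⁻¹ * phi D (AlgebraicClosure (ZMod r)) r n * MulAut.conj z) := by group
          _ = _ := by rw [h2]
      rw [h4, mul_inv_cancel_right]
    obtain ⟨z₀, hz₀⟩ := pow_mem_range hp hk f r M.toCoxeterSystem hB one_ne_zero hZ hq h3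
    rw [pow_one] at hz₀
    refine ⟨z₀, i, m, hi, hm0, by rw [hq, ← hmn, pow_mul], fun s t => ?_⟩
    apply emb_injective hp.inList f
    have h5 : emb hp.inList f ((MulAut.conj z₀ * x ^ i * (MulAut.conj z₀)⁻¹) (xS hp.inList s t)) =
        phi D (AlgebraicClosure (ZMod r)) r m (emb hp.inList f (xS hp.inList s t)) := by
      have e1 : (MulAut.conj z₀ * x ^ i * (MulAut.conj z₀)⁻¹) (xS hp.inList s t) =
          z₀ * (x ^ i) (z₀⁻¹ * xS hp.inList s t * z₀) * z₀⁻¹ := by
        rw [← map_inv MulAut.conj z₀, MulAut.mul_apply, MulAut.mul_apply, conj_ap, conj_ap, inv_inv]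
      have e0 : emb hp.inList f (z₀⁻¹ * xS hp.inList s t * z₀) = z⁻¹ * emb hp.inList f (xS hp.inList s t) * z := by
        rw [map_mul, map_mul, map_inv, hz₀]
      rw [e1, map_mul, map_mul, map_inv, hxi, h1, e0, hz₀]
      show z * ((MulAut.conj z)⁻¹ * phi D (AlgebraicClosure (ZMod r)) r m * MulAut.conj z)
        (z⁻¹ * emb hp.inList f (xS hp.inList s t) * z) * z⁻¹ = _
      rw [← map_inv MulAut.conj z, MulAut.mul_apply, MulAut.mul_apply, conj_ap, conj_ap, inv_inv]
      have e2 : z * (z⁻¹ * emb hp.inList f (xS hp.inList s t) * z) * z⁻¹ = emb hp.inList f (xS hp.inList s t) := by group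
      rw [e2]
      group
    rw [h5]
    apply Subtype.ext
    rw [phi_glMap, coe_emb, coe_emb]
    show glMap D _ (glMap D f (xG hp.inList s t)) = glMap D f (xG hp.inList s (t ^ r ^ m))
    rw [glMap_xG, glMap_xG, glMap_xG, map_pow]
    congr 1
    exact frb_apply _ r m _

end Cfsg.Agent.H583.OutForm
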