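import Cfsg.Agent.H583.GtUni
import Cfsg.Agent.H583.GtConj
import Cfsg.Agent.H583.OutForm
import Cfsg.Agent.H79.CharDiag

/-!
# `G₂(3^k)`, automorphisms of graph type (helper583, task 2381 of S4114)

* `long_short` : an automorphism of `G₂(3^k)` which is not a product of an inner, a diagonal and a field automorphism
  maps `x_6(1)` (long) to a conjugate of some `x_7(c)` (short), `c ≠ 0`;
* `field_cent` : an outer automorphism of odd prime order: the centraliser is simple and contains a conjugate of `x_6(1)`;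
* `g2_graph` : no such automorphism in a configuration `Cfg`.
-/

set_option autoImplicit false
set_option linter.unusedSectionVars false

namespace Cfsg.Agent.H583.GtGraph

open Subgroup Cfsg Cfsg.Lie Cfsg.Lie.ChevalleyDatum
open Cfsg.Agent.ChevalleyStructure.Elts Cfsg.Agent.ChevalleyStructure Cfsg.Agent.H96.WeakClosed
open Cfsg.Agent.H79.SimpleGen (xS eq_xS_iff mat_xS hom_ext)
open Cfsg.Agent.H520 Cfsg.Agent.H583.GtUni Cfsg.Agent.H583.OutForm
open Cfsg.Agent.BpExc.RowsUntw Cfsg.Agent.BpExc.FamExt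
open Cfsg.Agent.H696.GmnToral Cfsg.Agent.H696.GmnUntw Cfsg.Agent.H288.ElBase Cfsg.Agent.H288.ElExc
open Cfsg.Agent.BpExc.FamInst Cfsg.Agent.BpExc.FamUntw Cfsg.Agent.BpExc.FamField
open Cfsg.Agent.CpAut.RgdUntw (symTwo_G2)

variable {F : Type} [Field F]

local notation "X" => xS (F := F) inListG2

/-- the automorphism exchanges long and short root elements -/
theorem long_short [Finite F] {α : MulAut ↥(chevG2.group F)}
    (hα : ¬ ∃ (x : ↥(chevG2.group F)) (d f : ↥(chevG2.group F) ≃* ↥(chevG2.group F)),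
      chevG2.IsDiagonalAut d ∧ chevG2.IsFieldAut f ∧ ∀ y, α y = x * d (f y) * x⁻¹) :
    ∃ (x : ↥(chevG2.group F)) (c : F), c ≠ 0 ∧ α (X 6 1) = x * X 7 c * x⁻¹ := by
  obtain ⟨x, d, g, f, hd, hg, hf, h⟩ := Cfsg.Agent.S2156.result chevG2 inListG2 α
  obtain ⟨π, -, hg⟩ := hg
  have hs0 : chevG2.simple 0 = 7 := by decide
  have hs1 : chevG2.simple 1 = 6 := by decide
  have hg1 : ∀ (i : Fin chevG2.rank) (t : F), g (X (chevG2.simple i) t) =
      X (chevG2.simple (π i)) (t ^ chevG2.graphExp (ringChar F) i (π i)) := fun i t =>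
    (eq_xS_iff inListG2 _ _ _).2 ((hg _ i t).1 (mat_xS inListG2 _ t))
  have hg2 : ∀ (i : Fin chevG2.rank) (t : F), g (X (chevG2.neg (chevG2.simple i)) t) =
      X (chevG2.neg (chevG2.simple (π i))) (t ^ chevG2.graphExp (ringChar F) i (π i)) := fun i t =>
    (eq_xS_iff inListG2 _ _ _).2 ((hg _ i t).2 (mat_xS inListG2 _ t))
  have hcases : π = 1 ∨ π (1 : Fin 2) = (0 : Fin 2) := by
    have : ∀ π : Equiv.Perm (Fin 2), π = 1 ∨ π 1 = 0 := by decide
    exact this π
  rcases hcases with rfl | hπ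
  · exfalso
    apply hα
    refine ⟨x, d, f, hd, hf, fun y => ?_⟩
    have he : ∀ i : Fin chevG2.rank, chevG2.graphExp (ringChar F) i ((1 : Equiv.Perm (Fin chevG2.rank)) i) = 1 := by
      intro i
      rw [Equiv.Perm.one_apply]
      unfold ChevalleyDatum.graphExp
      rw [Bool.and_not_self]
      rfl
    have hid : g.toMonoidHom = MonoidHom.id _ := by
      refine hom_ext inListG2 _ _ (fun i hi t => ?_) (fun i hi t => ?_)
      · have h1 := hg1 ⟨i, hi⟩ t
        rw [he, pow_one, Equiv.Perm.one_apply] at h1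
        exact h1
      · have h1 := hg2 ⟨i, hi⟩ t
        rw [he, pow_one, Equiv.Perm.one_apply] at h1
        exact h1
    have h1 : g (f y) = f y := DFunLike.congr_fun hid (f y)
    rw [h, h1]
  · obtain ⟨σ, hσ⟩ := hf
    obtain ⟨χ, hχ, hd⟩ := hd
    have h1 : f (X 6 1) = X 6 1 := by
      rw [eq_xS_iff]
      have := hσ _ 6 1 (by decide) (mat_xS inListG2 6 (1 : F))
      rwa [map_one] at this
    have h2 : g (X 6 1) = X 7 1 := by
      have h3 := hg1 (1 : Fin 2) (1 : F)
      rw [one_pow] at h3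
      have h5 : chevG2.simple ((π (1 : Fin 2) : Fin 2) : ℕ) = 7 := by rw [hπ]; exact hs0
      have h6 : chevG2.simple ((1 : Fin 2) : ℕ) = 6 := hs1
      rw [h5, h6] at h3
      exact h3
    refine ⟨x, (χ 7 : F), (χ 7).ne_zero, ?_⟩
    have h3 : d (X 7 1) = X 7 (χ 7 : F) := by
      rw [eq_xS_iff, hd, mat_xS, Cfsg.Agent.H79.CharDiag.charDiag_conj inListG2 hχ (by decide), mul_one]
    rw [h, h1, h2, h3]

/-- **Outer automorphisms of odd prime order**: the centraliser. -/
theorem field_cent [Fintype F] [CharP F 3] {p : ℕ} (hpp : p.Prime) (hp2 : p ≠ 2) {x : MulAut ↥(chevG2.group F)}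
    (hxo : orderOf x = p) (hx : ¬ ∃ z, x = MulAut.conj z) :
    (IsSimpleGroup ↥(fixA x) ∧ ¬ IsMulCommutative ↥(fixA x)) ∧
      ∃ z : ↥(chevG2.group F), z⁻¹ * X 6 1 * z ∈ fixA x := by
  have h3p : Fact (Nat.Prime 3) := ⟨Nat.prime_three⟩
  have hxp : x ^ p = 1 := by rw [← hxo, pow_orderOf_eq_one]
  have h3 : 3 ≤ Fintype.card F := by
    obtain ⟨n, -, hn⟩ := FiniteField.card F 3
    rw [hn]
    exact Nat.le_self_pow n.ne_zero 3
  rcases outer_form g2T inv_G2 symTwo_G2 (Cfsg.Agent.S1055.result (exists_ne_algClosed _))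
    (Cfsg.Agent.S1055.result (exists_ne h3)) hpp hp2 hxp with h | ⟨z, i, m, hi, hm0, hcard, h⟩
  · exact absurd h hx
  have hL : g2T.inList = inListG2 := rfl
  set φ : MulAut ↥(chevG2.group F) := MulAut.conj z * x ^ i * (MulAut.conj z)⁻¹ with hφ
  have hfix : ∀ g, g ∈ fixA x ↔ z * g * z⁻¹ ∈ fixA φ := by
    intro g
    have h1 : g ∈ fixA x ↔ g ∈ fixA (x ^ i) := by
      rw [mem_fixA, mem_fixA]
      constructor
      · intro hg
        have : ∀ j : ℕ, (x ^ j) g = g := by
          intro j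
          induction j with
          | zero => rfl
          | succ j ih => rw [pow_succ, MulAut.mul_apply, hg, ih]
        exact this i
      · intro hg
        obtain ⟨j, hj⟩ : ∃ j : ℕ, (x ^ i) ^ j = x := by
          have h2 : i.Coprime (orderOf x) := by rw [hxo]; exact hi
          exact exists_pow_eq_self_of_coprime h2
        have : ∀ j : ℕ, ((x ^ i) ^ j) g = g := by
          intro j
          induction j with
          | zero => rfl
          | succ j ih => rw [pow_succ, MulAut.mul_apply, hg, ih]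
        have h3 := this j
        rwa [hj] at h3
    rw [h1, mem_fixA, mem_fixA, hφ]
    have e1 : (MulAut.conj z * x ^ i * (MulAut.conj z)⁻¹) (z * g * z⁻¹) = z * (x ^ i) g * z⁻¹ := by
      rw [← map_inv MulAut.conj z, MulAut.mul_apply, MulAut.mul_apply, conj_ap, conj_ap, inv_inv]
      congr 3
      group
    rw [e1]
    constructor
    · intro h2
      rw [h2]
    · intro h2
      exact mul_left_cancel (mul_right_cancel h2)
  -- `φ` is a field automorphism
  have hφF : chevG2.IsFieldAut φ := by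
    refine ⟨iterateFrobeniusEquiv F 3 m, fun g r t hr hg => ?_⟩
    have h1 : g = X r t := (eq_xS_iff inListG2 _ _ _).2 hg
    have h2 : φ g = X r (t ^ 3 ^ m) := by rw [h1]; exact h r t
    rw [h2, mat_xS, iterateFrobeniusEquiv_def]
  have hφo : orderOf φ = p := by
    have e1 : φ = MulAut.conj (MulAut.conj z) (x ^ i) := rfl
    have e2 : orderOf φ = orderOf (x ^ i) := by
      rw [e1]
      exact orderOf_injective (MulAut.conj (MulAut.conj z)).toMonoidHom (MulAut.conj (MulAut.conj z)).injective _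
    rw [e2, Nat.Coprime.orderOf_pow (by rw [hxo]; exact hi.symm), hxo]
  obtain ⟨F₀, iF, iFt, hF₀, ⟨e⟩⟩ := Cfsg.Agent.S2664.result φ hφF p hpp hφo
  have h3F : 3 ≤ Fintype.card F₀ := by
    have h3d : 3 ∣ Fintype.card F₀ := by
      apply Nat.prime_three.dvd_of_dvd_pow (n := p)
      rw [← hF₀]
      obtain ⟨n, -, hn⟩ := FiniteField.card F 3
      rw [hn]
      exact dvd_pow_self 3 n.ne_zero
    exact Nat.le_of_dvd Fintype.card_pos h3d
  have hs₀ := Cfsg.Agent.S1055.result (F := F₀) (exists_ne h3F)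
  have e' : ↥(fixA x) ≃* ↥(chevG2.group F₀) := by
    refine MulEquiv.trans ?_ e
    refine
      { toFun := fun g => ⟨z * g.1 * z⁻¹, (hfix g.1).1 g.2⟩
        invFun := fun g => ⟨z⁻¹ * g.1 * z, (hfix _).2 (by
          have : z * (z⁻¹ * g.1 * z) * z⁻¹ = g.1 := by group
          rw [this]
          exact g.2)⟩
        left_inv := fun g => Subtype.ext (by
          show z⁻¹ * (z * g.1 * z⁻¹) * z = g.1
          group)
        right_inv := fun g => Subtype.ext (by
          show z * (z⁻¹ * g.1 * z) * z⁻¹ = g.1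
          group)
        map_mul' := fun a b => Subtype.ext (by
          show z * (a.1 * b.1) * z⁻¹ = z * a.1 * z⁻¹ * (z * b.1 * z⁻¹)
          group) }
  refine ⟨⟨?_, ?_⟩, z, ?_⟩
  · have := hs₀.1
    exact e'.isSimpleGroup
  · intro hcm
    refine hs₀.2 ⟨⟨fun a b => e'.symm.injective ?_⟩⟩
    rw [map_mul, map_mul]
    exact hcm.is_comm.comm _ _
  · rw [hfix]
    have e1 : z * (z⁻¹ * X 6 1 * z) * z⁻¹ = X 6 1 := by group
    rw [e1, mem_fixA]
    have h1 : φ (X 6 1) = X 6 (1 ^ 3 ^ m) := h 6 1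
    rw [h1, one_pow]

/-- **No automorphism of graph type of `G₂(3^k)` in a configuration.** -/
theorem g2_graph' [Finite F] [CharP F 3] {α : MulAut ↥(chevG2.group F)} (h : Cfg α)
    (hα : ∃ (x : ↥(chevG2.group F)) (c : F), c ≠ 0 ∧ α (X 6 1) = x * X 7 c * x⁻¹) : False := by
  have := Fintype.ofFinite F
  have h3p : Fact (Nat.Prime 3) := ⟨Nat.prime_three⟩
  obtain ⟨p, hpp, hp2, hpα⟩ := h.exists_prime_ne Nat.prime_two even_g2
  obtain ⟨x, hx, hxo⟩ := exists_prime_order hpp hpα
  have hx1 : x ≠ 1 := by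
    rintro rfl
    rw [orderOf_one] at hxo
    exact hpp.one_lt.ne hxo
  have hxp : x ^ p = 1 := by rw [← hxo, pow_orderOf_eq_one]
  by_cases hin : ∃ z, x = MulAut.conj z
  · obtain ⟨z, rfl⟩ := hin
    have hz1 : z ≠ 1 := by
      rintro rfl
      exact hx1 (map_one _)
    have hzp : z ^ p = 1 := by
      apply conj_inj h.center_bot
      rw [map_pow, hxp, map_one]
    have hpF : Fact p.Prime := ⟨hpp⟩
    have hreal : ∃ g, g * z * g⁻¹ = z⁻¹ := by
      by_cases hp3 : p = 3
      · subst hp3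
        exact real_three hzp
      · exact real_adj g2T inv_G2 (center_eq_bot_of_simple (Cfsg.Agent.S1055.result (exists_ne_algClosed _)))
          (Cfsg.Agent.H696.GmnNeg.negG2 g2T _) hpp hp3 hzp
    obtain ⟨g, hg⟩ := hreal
    have h1 := h.sq_eq_one_of_real hx hg
    have h2 : orderOf z = p := orderOf_eq_prime hzp hz1
    have h3 := orderOf_dvd_of_pow_eq_one h1
    rw [h2] at h3
    exact hp2 ((Nat.prime_dvd_prime_iff_eq hpp Nat.prime_two).1 h3)
  · obtain ⟨⟨hs, hna⟩, z, hz⟩ := field_cent hpp hp2 hxo hin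
    have hcen := h.centralizes' (Cfg.fixA_ne_top hx1) (Cfg.fixA_inv (Cfg.comm_zpowers hx (mem_zpowers α))) le_rfl
      (Cfg.fixA_inv (Cfg.comm_zpowers hx (mem_zpowers α))) (fun N hN hsol => ?_)
    · have h1 := hcen _ hz
      obtain ⟨w, c, hc, hw⟩ := hα
      rw [map_mul, map_mul, map_inv, hw] at h1
      -- a short root element is conjugate to a long one
      have h2 : (w⁻¹ * α z * z⁻¹) * X 6 1 * (w⁻¹ * α z * z⁻¹)⁻¹ = X 7 c := by
        calc (w⁻¹ * α z * z⁻¹) * X 6 1 * (w⁻¹ * α z * z⁻¹)⁻¹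
            = w⁻¹ * (α z * (z⁻¹ * X 6 1 * z) * (α z)⁻¹) * w := by group
          _ = X 7 c := by rw [← h1]; group
      have h3 := congrArg Subtype.val h2
      exact hc (GtConj.eq_zero_of_conj (by rw [two]; exact neg_ne_zero.2 one_ne_zero) h3)
    · rcases hN.eq_bot_or_eq_top with h1 | h1
      · exact h1
      · exfalso
        rw [h1] at hsol
        refine ns_of_simple hs hna ?_
        exact Group.isSolvable_of_isSolvable_injective (f := (topEquiv (G := ↥(fixA x))).symm.toMonoidHom)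
          (topEquiv (G := ↥(fixA x))).symm.injective

/-- **No automorphism of graph type of `G₂(3^k)` in a configuration.** -/
theorem g2_graph [Finite F] [CharP F 3] {α : MulAut ↥(chevG2.group F)} (h : Cfg α)
    (hα : ¬ ∃ (x : ↥(chevG2.group F)) (d f : ↥(chevG2.group F) ≃* ↥(chevG2.group F)),
      chevG2.IsDiagonalAut d ∧ chevG2.IsFieldAut f ∧ ∀ y, α y = x * d (f y) * x⁻¹) : False :=
  g2_graph' h (long_short hα)

end Cfsg.Agent.H583.GtGraph
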