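import Cfsg.Agent.H580.Piv.GTwo
import Cfsg.Agent.H79.SimpleGen
import Cfsg.Agent.S1032
import Cfsg.Agent.S1059
import Cfsg.Agent.S1027

/-!
# Elements of order three of `G₂(3^k)` (helper583, S4114)

* `vv a b c d = x_8(a) x_9(b) x_10(c) x_11(d)` : the abelian normal subgroup of `U`;
* `real_of_pow_three` : every element `x` of `U` with `x³ = 1` is conjugate to `x⁻¹` in `G₂(3^k)`.
-/

set_option autoImplicit false
set_option linter.unusedSectionVars false

namespace Cfsg.Agent.H583.GtUni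

open Subgroup Cfsg Cfsg.Lie Cfsg.Agent.ChevalleyStructure.Elts Cfsg.Agent.ChevalleyStructure
  Cfsg.Agent.ChevalleyStructure.UnipProd Cfsg.Agent.H96.WeakClosed Cfsg.Agent.H580.Piv.GTwo
open Cfsg.Agent.H79.SimpleGen (xS nS nS_mul_xS xS_mul xS_zero xS_inv xS_injective)

variable {F : Type} [Field F] [CharP F 3]

local notation "X" => xS (F := F) inListG2

theorem three : (3 : F) = 0 := by
  have := CharP.cast_eq_zero F 3
  exact_mod_cast this

theorem two : (2 : F) = -1 := by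
  have h := three (F := F)
  linear_combination h

/-! ### the commutator relations -/

theorem cm {r s : ℕ} (h : (r, s) ∈ [(7, 10), (8, 10), (9, 10), (11, 10), (11, 9), (10, 8), (11, 8), (10, 7),
    (11, 7), (11, 6), (10, 9)]) (hr : r < 12) (hs : s < 12) (h1 : s ≠ r) (t u : F) : X s u * X r t = X r t * X s u :=
  Subtype.ext (cc h hr hs h1 t u)

theorem c98 (t u : F) : X 9 u * X 8 t = X 8 t * X 9 u := by
  have h : X 9 u * X 8 t = X 8 t * X 9 u * X 11 (3 * (-t) * u) := Subtype.ext (c9_8 t u)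
  rw [h, three, zero_mul, zero_mul, xS_zero, mul_one]

theorem c97 (t u : F) : X 9 u * X 7 t = X 7 t * X 9 u := by
  have h : X 9 u * X 7 t = X 7 t * X 9 u * X 10 (3 * (-t) * u) := Subtype.ext (c9_7 t u)
  rw [h, three, zero_mul, zero_mul, xS_zero, mul_one]

theorem c106 (t u : F) : X 10 u * X 6 t = X 6 t * X 10 u * X 11 (-(t * u)) := by
  have h : X 10 u * X 6 t = X 6 t * X 10 u * X 11 (-t * u) := Subtype.ext (c10_6 t u)
  rw [h, neg_mul]

theorem comm_nil {r s : ℕ} (hr : r < 12) (hs : s < 12) (h1 : s ≠ r) (h2 : s ≠ chevG2.neg r)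
    (h : chevG2.commTerms r s = []) (t u : F) : X s u * X r t = X r t * X s u :=
  Subtype.ext (comm_one hr hs h1 h2 h t u)

theorem c86 (t u : F) : X 8 u * X 6 t = X 6 t * X 8 u :=
  comm_nil (by decide) (by decide) (by decide) (by decide +kernel) (by decide +kernel) t u

theorem c96 (t u : F) : X 9 u * X 6 t = X 6 t * X 9 u :=
  comm_nil (by decide) (by decide) (by decide) (by decide +kernel) (by decide +kernel) t u

theorem comm_gen {r s : ℕ} (hr : r < 12) (hs : s < 12) (h1 : s ≠ r) (h2 : s ≠ chevG2.neg r)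
    {l : List (ℕ × ℤ × ℕ × ℕ)} (h : chevG2.commTerms r s = l) (t u : F) :
    X s u * X r t = X r t * X s u * ((l.map fun p => X p.1 ((p.2.1 : F) * (-t) ^ p.2.2.1 * u ^ p.2.2.2)).prod) := by
  apply Subtype.ext
  have h3 := comm_word (F := F) hr hs h1 h2 t u
  rw [ChevalleyDatum.commWord, h] at h3
  refine h3.trans ?_
  have h4 : ∀ l : List (ℕ × ℤ × ℕ × ℕ), wordG inListG2 (l.map fun p => (p.1, (p.2.1 : F) * (-t) ^ p.2.2.1 * u ^ p.2.2.2)) =
      (((l.map fun p => X p.1 ((p.2.1 : F) * (-t) ^ p.2.2.1 * u ^ p.2.2.2)).prod : ↥(chevG2.group F)) : GL chevG2.Idx F) := by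
    intro l
    induction l with
    | nil => rfl
    | cons a l ih =>
      rw [List.map_cons, List.map_cons, wordG_cons, List.prod_cons, ih]
      rfl
  rw [Subgroup.coe_mul, Subgroup.coe_mul, ← h4]
  rfl

theorem c87 (t u : F) : X 8 u * X 7 t = X 7 t * X 8 u * X 9 (-(t * u)) := by
  rw [comm_gen (r := 7) (s := 8) (by decide) (by decide) (by decide) (by decide +kernel)
    (l := [(9, -2, 1, 1), (10, -3, 2, 1), (11, 3, 1, 2)]) (by decide +kernel) t u]
  have h := three (F := F)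
  simp only [List.map_cons, List.map_nil, List.prod_cons, List.prod_nil, mul_one]
  have e1 : (((-3 : ℤ) : F)) * (-t) ^ 2 * u ^ 1 = 0 := by push_cast; linear_combination (-((-t) ^ 2 * u ^ 1)) * h
  have e2 : (((3 : ℤ) : F)) * (-t) ^ 1 * u ^ 2 = 0 := by push_cast; linear_combination (((-t) ^ 1 * u ^ 2)) * h
  have e3 : (((-2 : ℤ) : F)) * (-t) ^ 1 * u ^ 1 = -(t * u) := by push_cast; linear_combination (t * u) * h
  rw [e1, e2, e3, xS_zero, xS_zero, mul_one, mul_one]

/-- the elements of the abelian normal subgroup `X_8 X_9 X_10 X_11` -/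
def vv (a b c d : F) : ↥(chevG2.group F) := X 8 a * X 9 b * X 10 c * X 11 d

theorem c76 (t u : F) : X 7 u * X 6 t = X 6 t * X 7 u * vv (-(t * u)) (-(t * u ^ 2)) (t * u ^ 3) (t ^ 2 * u ^ 3) := by
  rw [comm_gen (r := 6) (s := 7) (by decide) (by decide) (by decide) (by decide +kernel)
    (l := [(8, 1, 1, 1), (9, 1, 1, 2), (10, -1, 1, 3), (11, -2, 2, 3)]) (by decide +kernel) t u]
  have h := three (F := F)
  simp only [List.map_cons, List.map_nil, List.prod_cons, List.prod_nil, mul_one]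
  have e1 : (((1 : ℤ) : F)) * (-t) ^ 1 * u ^ 1 = -(t * u) := by push_cast; ring
  have e2 : (((1 : ℤ) : F)) * (-t) ^ 1 * u ^ 2 = -(t * u ^ 2) := by push_cast; ring
  have e3 : (((-1 : ℤ) : F)) * (-t) ^ 1 * u ^ 3 = t * u ^ 3 := by push_cast; ring
  have e4 : (((-2 : ℤ) : F)) * (-t) ^ 2 * u ^ 3 = t ^ 2 * u ^ 3 := by push_cast; linear_combination (-(t ^ 2 * u ^ 3)) * h
  rw [e1, e2, e3, e4, vv]
  simp only [mul_assoc]

theorem c67 (t u : F) : X 6 u * X 7 t = X 7 t * X 6 u * vv (t * u) (t ^ 2 * u) (-(t ^ 3 * u)) (-(t ^ 3 * u ^ 2)) := by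
  rw [comm_gen (r := 7) (s := 6) (by decide) (by decide) (by decide) (by decide +kernel)
    (l := [(8, -1, 1, 1), (9, 1, 2, 1), (10, 1, 3, 1), (11, 1, 3, 2)]) (by decide +kernel) t u]
  simp only [List.map_cons, List.map_nil, List.prod_cons, List.prod_nil, mul_one]
  have e1 : (((-1 : ℤ) : F)) * (-t) ^ 1 * u ^ 1 = (t * u) := by push_cast; ring
  have e2 : (((1 : ℤ) : F)) * (-t) ^ 2 * u ^ 1 = (t ^ 2 * u) := by push_cast; ring
  have e3 : (((1 : ℤ) : F)) * (-t) ^ 3 * u ^ 1 = -(t ^ 3 * u) := by push_cast; ring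
  have e4 : (((1 : ℤ) : F)) * (-t) ^ 3 * u ^ 2 = -(t ^ 3 * u ^ 2) := by push_cast; ring
  rw [e1, e2, e3, e4, vv]
  simp only [mul_assoc]

theorem c109 (t u : F) : X 10 u * X 9 t = X 9 t * X 10 u :=
  cm (r := 9) (s := 10) (by decide) (by decide) (by decide) (by decide) t u
theorem c108 (t u : F) : X 10 u * X 8 t = X 8 t * X 10 u :=
  cm (r := 8) (s := 10) (by decide) (by decide) (by decide) (by decide) t u
theorem c119 (t u : F) : X 11 u * X 9 t = X 9 t * X 11 u :=
  (cm (r := 11) (s := 9) (by decide) (by decide) (by decide) (by decide) u t).symm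
theorem c118 (t u : F) : X 11 u * X 8 t = X 8 t * X 11 u :=
  (cm (r := 11) (s := 8) (by decide) (by decide) (by decide) (by decide) u t).symm
theorem c1110 (t u : F) : X 11 u * X 10 t = X 10 t * X 11 u :=
  (cm (r := 11) (s := 10) (by decide) (by decide) (by decide) (by decide) u t).symm
theorem c107 (t u : F) : X 10 u * X 7 t = X 7 t * X 10 u :=
  cm (r := 7) (s := 10) (by decide) (by decide) (by decide) (by decide) t u
theorem c117 (t u : F) : X 11 u * X 7 t = X 7 t * X 11 u :=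
  (cm (r := 11) (s := 7) (by decide) (by decide) (by decide) (by decide) u t).symm
theorem c116 (t u : F) : X 11 u * X 6 t = X 6 t * X 11 u :=
  (cm (r := 11) (s := 6) (by decide) (by decide) (by decide) (by decide) u t).symm

theorem vv_mul (a b c d a' b' c' d' : F) :
    vv a b c d * vv a' b' c' d' = vv (a + a') (b + b') (c + c') (d + d') := by
  unfold vv
  rw [← xS_mul, ← xS_mul, ← xS_mul, ← xS_mul]
  calc X 8 a * X 9 b * X 10 c * X 11 d * (X 8 a' * X 9 b' * X 10 c' * X 11 d')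
      = X 8 a * X 9 b * X 10 c * (X 11 d * X 8 a') * X 9 b' * X 10 c' * X 11 d' := by simp only [mul_assoc]
    _ = X 8 a * X 9 b * (X 10 c * X 8 a') * (X 11 d * X 9 b') * X 10 c' * X 11 d' := by
      rw [c118]; simp only [mul_assoc]
    _ = X 8 a * (X 9 b * X 8 a') * (X 10 c * X 9 b') * (X 11 d * X 10 c') * X 11 d' := by
      rw [c108, c119]; simp only [mul_assoc]
    _ = _ := by rw [c98, c109, c1110]; simp only [mul_assoc]

theorem vv_zero : (vv 0 0 0 0 : ↥(chevG2.group F)) = 1 := by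
  unfold vv
  rw [xS_zero, xS_zero, xS_zero, xS_zero, one_mul, one_mul, one_mul]

theorem vv_inv (a b c d : F) : (vv a b c d)⁻¹ = vv (-a) (-b) (-c) (-d) := by
  rw [inv_eq_iff_mul_eq_one, vv_mul, add_neg_cancel, add_neg_cancel, add_neg_cancel, add_neg_cancel, vv_zero]

theorem vv_six (a b c d t : F) : vv a b c d * X 6 t = X 6 t * vv a b c (d - t * c) := by
  unfold vv
  calc X 8 a * X 9 b * X 10 c * X 11 d * X 6 t = X 8 a * X 9 b * X 10 c * (X 11 d * X 6 t) := by
        simp only [mul_assoc]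
    _ = X 8 a * X 9 b * (X 10 c * X 6 t) * X 11 d := by rw [c116]; simp only [mul_assoc]
    _ = X 8 a * (X 9 b * X 6 t) * X 10 c * (X 11 (-(t * c)) * X 11 d) := by rw [c106]; simp only [mul_assoc]
    _ = (X 8 a * X 6 t) * X 9 b * X 10 c * (X 11 (-(t * c)) * X 11 d) := by rw [c96]; simp only [mul_assoc]
    _ = X 6 t * (X 8 a * X 9 b * X 10 c * X 11 (d - t * c)) := by
      rw [c86, xS_mul, show -(t * c) + d = d - t * c by ring]; simp only [mul_assoc]

theorem vv_seven (a b c d t : F) : vv a b c d * X 7 t = X 7 t * vv a (b - t * a) c d := by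
  unfold vv
  calc X 8 a * X 9 b * X 10 c * X 11 d * X 7 t = X 8 a * X 9 b * X 10 c * (X 11 d * X 7 t) := by
        simp only [mul_assoc]
    _ = X 8 a * X 9 b * (X 10 c * X 7 t) * X 11 d := by rw [c117]; simp only [mul_assoc]
    _ = X 8 a * (X 9 b * X 7 t) * X 10 c * X 11 d := by rw [c107]; simp only [mul_assoc]
    _ = (X 8 a * X 7 t) * X 9 b * X 10 c * X 11 d := by rw [c97]; simp only [mul_assoc]
    _ = X 7 t * X 8 a * (X 9 (-(t * a)) * X 9 b) * X 10 c * X 11 d := by rw [c87]; simp only [mul_assoc]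
    _ = X 7 t * (X 8 a * X 9 (b - t * a) * X 10 c * X 11 d) := by
      rw [xS_mul, show -(t * a) + b = b - t * a by ring]; simp only [mul_assoc]

/-- the cube of `x_6(s) x_7(t) v` -/
theorem cube (s t a b c d : F) :
    (X 6 s * X 7 t * vv a b c d) ^ 3 = vv 0 (-(s * t ^ 2)) 0 (-(s ^ 2 * t ^ 3)) := by
  have h3 := three (F := F)
  have h7 := c76 (F := F)
  -- conjugation by `x_6(s) x_7(t)`
  have e1 : ∀ a b c d : F, vv a b c d * (X 6 s * X 7 t) = X 6 s * X 7 t * vv a (b - t * a) c (d - s * c) := by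
    intro a b c d
    rw [← mul_assoc, vv_six, mul_assoc, vv_seven, mul_assoc]
  have hsq : (X 6 s * X 7 t) * (X 6 s * X 7 t) = X 6 (-s) * X 7 (-t) * vv (-(s * t)) 0 (s * t ^ 3) (s ^ 2 * t ^ 3) := by
    calc (X 6 s * X 7 t) * (X 6 s * X 7 t) = X 6 s * (X 7 t * X 6 s) * X 7 t := by simp only [mul_assoc]
      _ = X 6 s * X 6 s * X 7 t * (vv (-(s * t)) (-(s * t ^ 2)) (s * t ^ 3) (s ^ 2 * t ^ 3) * X 7 t) := by
        rw [c76]; simp only [mul_assoc]
      _ = (X 6 s * X 6 s) * (X 7 t * X 7 t) * vv (-(s * t)) (-(s * t ^ 2) - t * (-(s * t))) (s * t ^ 3) (s ^ 2 * t ^ 3) := by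
        rw [vv_seven]; simp only [mul_assoc]
      _ = _ := by
        rw [xS_mul, xS_mul, show s + s = -s by linear_combination s * h3, show t + t = -t by linear_combination t * h3,
          show -(s * t ^ 2) - t * (-(s * t)) = 0 by ring]
  have hcu : (X 6 s * X 7 t) * (X 6 s * X 7 t) * (X 6 s * X 7 t) = vv 0 (-(s * t ^ 2)) 0 (-(s ^ 2 * t ^ 3)) := by
    rw [hsq]
    calc X 6 (-s) * X 7 (-t) * vv (-(s * t)) 0 (s * t ^ 3) (s ^ 2 * t ^ 3) * (X 6 s * X 7 t)
        = X 6 (-s) * (X 7 (-t) * X 6 s) * vv (-(s * t)) 0 (s * t ^ 3) (s ^ 2 * t ^ 3 - s * (s * t ^ 3)) * X 7 t := by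
          rw [mul_assoc, ← mul_assoc (vv _ _ _ _), vv_six]; simp only [mul_assoc]
      _ = (X 6 (-s) * X 6 s) * X 7 (-t) * (vv (-(s * -t)) (-(s * (-t) ^ 2)) (s * (-t) ^ 3) (s ^ 2 * (-t) ^ 3) *
          vv (-(s * t)) 0 (s * t ^ 3) (s ^ 2 * t ^ 3 - s * (s * t ^ 3))) * X 7 t := by
          rw [c76]; simp only [mul_assoc]
      _ = X 7 (-t) * (vv 0 (-(s * t ^ 2)) 0 (-(s ^ 2 * t ^ 3)) * X 7 t) := by
          rw [xS_mul, neg_add_cancel, xS_zero, one_mul, vv_mul,
            show -(s * -t) + -(s * t) = 0 by ring, show -(s * (-t) ^ 2) + 0 = -(s * t ^ 2) by ring,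
            show s * (-t) ^ 3 + s * t ^ 3 = 0 by ring,
            show s ^ 2 * (-t) ^ 3 + (s ^ 2 * t ^ 3 - s * (s * t ^ 3)) = -(s ^ 2 * t ^ 3) by ring]
          simp only [mul_assoc]
      _ = _ := by
          rw [vv_seven, ← mul_assoc, xS_mul, neg_add_cancel, xS_zero, one_mul,
            show -(s * t ^ 2) - t * 0 = -(s * t ^ 2) by ring]
  calc (X 6 s * X 7 t * vv a b c d) ^ 3
      = X 6 s * X 7 t * (vv a b c d * (X 6 s * X 7 t)) * (vv a b c d * (X 6 s * X 7 t)) * vv a b c d := by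
        rw [pow_succ, pow_two]; simp only [mul_assoc]
    _ = X 6 s * X 7 t * (X 6 s * X 7 t) * (vv a (b - t * a) c (d - s * c) * (X 6 s * X 7 t)) *
        vv a (b - t * a) c (d - s * c) * vv a b c d := by
        rw [e1]; simp only [mul_assoc]
    _ = (X 6 s * X 7 t) * (X 6 s * X 7 t) * (X 6 s * X 7 t) * (vv a (b - t * a - t * a) c (d - s * c - s * c) *
        vv a (b - t * a) c (d - s * c) * vv a b c d) := by
        rw [e1]; simp only [mul_assoc]
    _ = _ := by
        rw [hcu, vv_mul, vv_mul, vv_mul]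
        congr 1
        · linear_combination a * h3
        · linear_combination (b - t * a) * h3
        · linear_combination c * h3
        · linear_combination (d - s * c) * h3

/-! ### real elements -/

/-- `x` is conjugate to its inverse -/
def Rl {G : Type*} [Group G] (x : G) : Prop := ∃ g : G, g * x * g⁻¹ = x⁻¹

theorem Rl.of_conj {G : Type*} [Group G] {x y : G} (k : G) (h : k * x * k⁻¹ = y) (hy : Rl y) : Rl x := by
  obtain ⟨g, hg⟩ := hy
  refine ⟨k⁻¹ * g * k, ?_⟩
  rw [← h] at hg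
  calc k⁻¹ * g * k * x * (k⁻¹ * g * k)⁻¹ = k⁻¹ * (g * (k * x * k⁻¹) * g⁻¹) * k := by group
    _ = x⁻¹ := by rw [hg]; group

theorem Rl.of_mul {G : Type*} [Group G] {x y : G} (k : G) (h : x * k = k * y) (hy : Rl y) : Rl x :=
  hy.of_conj k⁻¹ (by rw [inv_inv, mul_assoc, h, inv_mul_cancel_left])

/-- the element `h_i(-1)` -/
def hh (i : ℕ) : ↥(chevG2.group F) := ⟨hG inListG2 (chevG2.simple i) (-1), hG_mem_group _ _ _⟩

theorem hh_mul {i s : ℕ} (hi : i < 2) (hs : s < 12) (t : F) :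
    hh i * X s t = X s ((-1) ^ (chevG2.cartan i s) * t) * hh i :=
  Subtype.ext (Units.ext (Cfsg.Agent.S1032.result chevG2 inListG2 i s hi hs (-1) (by simp) t))

theorem hh_zero (a b c d : F) : hh 0 * vv a b c d = vv (-a) (-b) (-c) d * hh 0 := by
  have e8 : ∀ t : F, hh 0 * X 8 t = X 8 (-t) * hh 0 := fun t => by
    rw [hh_mul (by decide) (by decide), show chevG2.cartan 0 8 = -1 by decide +kernel]; congr 2; simp
  have e9 : ∀ t : F, hh 0 * X 9 t = X 9 (-t) * hh 0 := fun t => by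
    rw [hh_mul (by decide) (by decide), show chevG2.cartan 0 9 = 1 by decide +kernel]; congr 2; simp
  have e10 : ∀ t : F, hh 0 * X 10 t = X 10 (-t) * hh 0 := fun t => by
    rw [hh_mul (by decide) (by decide), show chevG2.cartan 0 10 = 3 by decide +kernel]; congr 2
    rw [show ((3 : ℤ)) = ((3 : ℕ) : ℤ) by rfl, zpow_natCast]; ring
  have e11 : ∀ t : F, hh 0 * X 11 t = X 11 t * hh 0 := fun t => by
    rw [hh_mul (by decide) (by decide), show chevG2.cartan 0 11 = 0 by decide +kernel]; congr 2; simp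
  unfold vv
  rw [← mul_assoc, ← mul_assoc, ← mul_assoc, e8, mul_assoc (X 8 (-a)), e9, ← mul_assoc, mul_assoc (_ * X 9 (-b)), e10,
    ← mul_assoc, mul_assoc (_ * X 10 (-c)), e11, ← mul_assoc]

theorem hh_one (a b c d : F) : hh 1 * vv a b c d = vv (-a) b (-c) (-d) * hh 1 := by
  have e8 : ∀ t : F, hh 1 * X 8 t = X 8 (-t) * hh 1 := fun t => by
    rw [hh_mul (by decide) (by decide), show chevG2.cartan 1 8 = 1 by decide +kernel]; congr 2; simp
  have e9 : ∀ t : F, hh 1 * X 9 t = X 9 t * hh 1 := fun t => by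
    rw [hh_mul (by decide) (by decide), show chevG2.cartan 1 9 = 0 by decide +kernel]; congr 2; simp
  have e10 : ∀ t : F, hh 1 * X 10 t = X 10 (-t) * hh 1 := fun t => by
    rw [hh_mul (by decide) (by decide), show chevG2.cartan 1 10 = -1 by decide +kernel]; congr 2; simp
  have e11 : ∀ t : F, hh 1 * X 11 t = X 11 (-t) * hh 1 := fun t => by
    rw [hh_mul (by decide) (by decide), show chevG2.cartan 1 11 = 1 by decide +kernel]; congr 2; simp
  unfold vv
  rw [← mul_assoc, ← mul_assoc, ← mul_assoc, e8, mul_assoc (X 8 (-a)), e9, ← mul_assoc, mul_assoc (_ * X 9 b), e10,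
    ← mul_assoc, mul_assoc (_ * X 10 (-c)), e11, ← mul_assoc]

/-- the elements of `V` are real -/
theorem real_vv (a b c d : F) : Rl (vv a b c d : ↥(chevG2.group F)) := by
  by_cases hc : c = 0
  · subst hc
    have key : ∀ a b d : F, a = 0 ∨ b = 0 → Rl (vv a b 0 d : ↥(chevG2.group F)) := by
      rintro a b d (rfl | rfl)
      · refine ⟨hh 0 * hh 1, ?_⟩
        rw [mul_assoc (hh 0), hh_one, ← mul_assoc, hh_zero, mul_inv_rev, mul_assoc _ (hh 0) (hh 1), mul_assoc,
          mul_assoc (hh 0), mul_inv_cancel_left, mul_inv_cancel, mul_one, vv_inv]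
        simp
      · refine ⟨hh 1, ?_⟩
        rw [hh_one, mul_inv_cancel_right, vv_inv, neg_zero]
    by_cases ha : a = 0
    · exact key a b d (Or.inl ha)
    · refine Rl.of_mul (X 7 (b / a)) (vv_seven a b 0 d (b / a)) ?_
      rw [div_mul_cancel₀ b ha, sub_self]
      exact key a 0 d (Or.inr rfl)
  · refine Rl.of_mul (X 6 (d / c)) (vv_six a b c d (d / c)) ?_
    rw [div_mul_cancel₀ d hc, sub_self]
    exact ⟨hh 0, by rw [hh_zero, mul_inv_cancel_right, vv_inv, neg_zero]⟩

/-- the element `n_i` -/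
def nn (i : ℕ) : ↥(chevG2.group F) := nS inListG2 (chevG2.simple i) 1

theorem nn_mul {i s s' : ℕ} (hi : i < 2) (hs : s < 12) (h : chevG2.reflectRoot i s = s') (t : F) :
    ∃ t' : F, nn i * X s t = X s' t' * nn i := by
  subst h
  exact ⟨_, nS_mul_xS inListG2 hi hs t⟩

/-- the elements `x_6(s) v` are real -/
theorem real_six [Finite F] (s a b c d : F) : Rl (X 6 s * vv a b c d) := by
  by_cases hs : s = 0
  · rw [hs, xS_zero, one_mul]
    exact real_vv a b c d
  -- kill the coefficient of `x_10`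
  obtain ⟨t, ht⟩ : ∃ t : F, t ^ 3 = c / s := by
    have h : Function.Injective (frobenius F 3) := frobenius_inj F 3
    obtain ⟨t, ht⟩ := (Finite.injective_iff_surjective.1 h) (c / s)
    exact ⟨t, by rw [← ht, frobenius_def]⟩
  have hc : t ^ 3 * s = c := by rw [ht, div_mul_cancel₀ c hs]
  refine Rl.of_mul (X 7 t) (y := X 6 s * vv (a + t * s) (b - t * a + t ^ 2 * s) 0 (d - t ^ 3 * s ^ 2)) ?_ ?_
  · rw [mul_assoc, vv_seven, ← mul_assoc, c67]
    rw [mul_assoc (X 7 t * X 6 s), vv_mul, mul_assoc]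
    congr 3 <;> first | ring1 | linear_combination (-1 : F) * hc
  · obtain ⟨t1, h1⟩ := nn_mul (F := F) (i := 0) (s := 6) (s' := 10) (by decide) (by decide) (by decide +kernel) s
    obtain ⟨t2, h2⟩ := nn_mul (F := F) (i := 0) (s := 8) (s' := 9) (by decide) (by decide) (by decide +kernel) (a + t * s)
    obtain ⟨t3, h3⟩ := nn_mul (F := F) (i := 0) (s := 9) (s' := 8) (by decide) (by decide) (by decide +kernel)
      (b - t * a + t ^ 2 * s)
    obtain ⟨t4, h4⟩ := nn_mul (F := F) (i := 0) (s := 11) (s' := 11) (by decide) (by decide) (by decide +kernel)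
      (d - t ^ 3 * s ^ 2)
    refine Rl.of_conj (nn 0) (y := vv t3 t2 t1 t4) ?_ (real_vv _ _ _ _)
    rw [mul_inv_eq_iff_eq_mul]
    unfold vv
    rw [xS_zero, mul_one]
    calc nn 0 * (X 6 s * (X 8 (a + t * s) * X 9 (b - t * a + t ^ 2 * s) * X 11 (d - t ^ 3 * s ^ 2)))
        = (nn 0 * X 6 s) * (X 8 (a + t * s) * X 9 (b - t * a + t ^ 2 * s) * X 11 (d - t ^ 3 * s ^ 2)) := by
          simp only [mul_assoc]
      _ = X 10 t1 * (nn 0 * X 8 (a + t * s)) * (X 9 (b - t * a + t ^ 2 * s) * X 11 (d - t ^ 3 * s ^ 2)) := by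
          rw [h1]; simp only [mul_assoc]
      _ = X 10 t1 * X 9 t2 * (nn 0 * X 9 (b - t * a + t ^ 2 * s)) * X 11 (d - t ^ 3 * s ^ 2) := by
          rw [h2]; simp only [mul_assoc]
      _ = X 10 t1 * X 9 t2 * X 8 t3 * (nn 0 * X 11 (d - t ^ 3 * s ^ 2)) := by
          rw [h3]; simp only [mul_assoc]
      _ = X 10 t1 * (X 9 t2 * X 8 t3) * X 11 t4 * nn 0 := by
          rw [h4]; simp only [mul_assoc]
      _ = (X 10 t1 * X 8 t3) * X 9 t2 * X 11 t4 * nn 0 := by
          rw [c98]; simp only [mul_assoc]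
      _ = X 8 t3 * (X 10 t1 * X 9 t2) * X 11 t4 * nn 0 := by
          rw [c108]; simp only [mul_assoc]
      _ = _ := by
          rw [c109]; simp only [mul_assoc]

/-- the elements `x_7(s) v` are real -/
theorem real_seven (s a b c d : F) : Rl (X 7 s * vv a b c d) := by
  by_cases hs : s = 0
  · rw [hs, xS_zero, one_mul]
    exact real_vv a b c d
  -- kill the coefficient of `x_8`
  obtain ⟨t, ht⟩ : ∃ t : F, t * s = a := ⟨a / s, div_mul_cancel₀ a hs⟩
  refine Rl.of_mul (X 6 t) (y := X 7 s * vv 0 (b - t * s ^ 2) (c + t * s ^ 3) (d - t * c + t ^ 2 * s ^ 3)) ?_ ?_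
  · rw [mul_assoc, vv_six, ← mul_assoc, c76]
    rw [mul_assoc (X 6 t * X 7 s), vv_mul, mul_assoc]
    congr 3 <;> first | ring1 | linear_combination (-1 : F) * ht
  · obtain ⟨t1, h1⟩ := nn_mul (F := F) (i := 1) (s := 7) (s' := 8) (by decide) (by decide) (by decide +kernel) s
    obtain ⟨t2, h2⟩ := nn_mul (F := F) (i := 1) (s := 9) (s' := 9) (by decide) (by decide) (by decide +kernel)
      (b - t * s ^ 2)
    obtain ⟨t3, h3⟩ := nn_mul (F := F) (i := 1) (s := 10) (s' := 11) (by decide) (by decide) (by decide +kernel)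
      (c + t * s ^ 3)
    obtain ⟨t4, h4⟩ := nn_mul (F := F) (i := 1) (s := 11) (s' := 10) (by decide) (by decide) (by decide +kernel)
      (d - t * c + t ^ 2 * s ^ 3)
    refine Rl.of_conj (nn 1) (y := vv t1 t2 t4 t3) ?_ (real_vv _ _ _ _)
    rw [mul_inv_eq_iff_eq_mul]
    unfold vv
    rw [xS_zero, one_mul]
    calc nn 1 * (X 7 s * (X 9 (b - t * s ^ 2) * X 10 (c + t * s ^ 3) * X 11 (d - t * c + t ^ 2 * s ^ 3)))
        = (nn 1 * X 7 s) * (X 9 (b - t * s ^ 2) * X 10 (c + t * s ^ 3) * X 11 (d - t * c + t ^ 2 * s ^ 3)) := by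
          simp only [mul_assoc]
      _ = X 8 t1 * (nn 1 * X 9 (b - t * s ^ 2)) * (X 10 (c + t * s ^ 3) * X 11 (d - t * c + t ^ 2 * s ^ 3)) := by
          rw [h1]; simp only [mul_assoc]
      _ = X 8 t1 * X 9 t2 * (nn 1 * X 10 (c + t * s ^ 3)) * X 11 (d - t * c + t ^ 2 * s ^ 3) := by
          rw [h2]; simp only [mul_assoc]
      _ = X 8 t1 * X 9 t2 * X 11 t3 * (nn 1 * X 11 (d - t * c + t ^ 2 * s ^ 3)) := by
          rw [h3]; simp only [mul_assoc]
      _ = X 8 t1 * X 9 t2 * (X 11 t3 * X 10 t4) * nn 1 := by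
          rw [h4]; simp only [mul_assoc]
      _ = _ := by
          rw [c1110]; simp only [mul_assoc]

/-- the form of the elements of `U` -/
theorem exists_form {g : GL chevG2.Idx F} (hg : g ∈ chevG2.posUnipotent F) :
    ∃ s t a b c d : F, g = ((X 6 s * X 7 t * vv a b c d : ↥(chevG2.group F)) : GL chevG2.Idx F) := by
  rw [← unipGE_eq_posUnipotent inListG2 F (k := 6) (by decide)] at hg
  obtain ⟨t6, v6, hv6, rfl⟩ := exists_of_mem_unipGE inListG2 (pos_G2 6 (by simp)) hg
  obtain ⟨t7, v7, hv7, rfl⟩ := exists_of_mem_unipGE inListG2 (pos_G2 7 (by simp)) hv6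
  obtain ⟨t8, v8, hv8, rfl⟩ := exists_of_mem_unipGE inListG2 (pos_G2 8 (by simp)) hv7
  obtain ⟨t9, v9, hv9, rfl⟩ := exists_of_mem_unipGE inListG2 (pos_G2 9 (by simp)) hv8
  obtain ⟨t10, v10, hv10, rfl⟩ := exists_of_mem_unipGE inListG2 (pos_G2 10 (by simp)) hv9
  obtain ⟨t11, v11, hv11, rfl⟩ := exists_of_mem_unipGE inListG2 (pos_G2 11 (by simp)) hv10
  rw [unipGE_eq_bot inListG2 F (by decide), Subgroup.mem_bot] at hv11
  subst hv11
  refine ⟨t6, t7, t8, t9, t10, t11, ?_⟩
  show _ = xG inListG2 6 t6 * xG inListG2 7 t7 * (xG inListG2 8 t8 * xG inListG2 9 t9 * xG inListG2 10 t10 *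
    xG inListG2 11 t11)
  simp only [mul_assoc, mul_one]

theorem vv_nine {a b c d : F} (h : (vv a b c d : ↥(chevG2.group F)) = 1) : b = 0 := by
  have h0 : (vv a b c d : ↥(chevG2.group F)) = vv 0 0 0 0 := by rw [h, vv_zero]
  have e : rootsGE chevG2 8 = [8, 9, 10, 11] := rfl
  let f : F → F → F → F → ℕ → F := fun a b c d r => if r = 8 then a else if r = 9 then b else if r = 10 then c else d
  have h1 : wordG inListG2 ((rootsGE chevG2 8).map fun r => (r, f a b c d r)) =
      wordG inListG2 ((rootsGE chevG2 8).map fun r => (r, f 0 0 0 0 r)) := by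
    rw [e]
    simp only [List.map_cons, List.map_nil, wordG_cons, wordG_nil, mul_one]
    have h2 := congrArg Subtype.val h0
    have h3 : xG inListG2 8 a * xG inListG2 9 b * xG inListG2 10 c * xG inListG2 11 d =
        xG inListG2 8 0 * xG inListG2 9 0 * xG inListG2 10 0 * xG inListG2 11 0 := h2
    simp only [mul_assoc] at h3
    exact h3
  have h2 := prod_injective inListG2 (by decide) h1 9 (by decide) (by decide)
  exact h2

/-- **An element of `U` with cube one is real.** -/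
theorem real_of_pow_three [Finite F] {x : ↥(chevG2.group F)} (hx : (x : GL chevG2.Idx F) ∈ chevG2.posUnipotent F)
    (h3 : x ^ 3 = 1) : Rl x := by
  obtain ⟨s, t, a, b, c, d, h⟩ := exists_form hx
  have hx' : x = X 6 s * X 7 t * vv a b c d := Subtype.ext h
  rw [hx', cube] at h3
  have h1 := vv_nine h3
  rw [neg_eq_zero, mul_eq_zero] at h1
  rw [hx']
  rcases h1 with rfl | h1
  · rw [xS_zero, one_mul]
    exact real_seven t a b c d
  · rw [(pow_eq_zero_iff two_ne_zero).1 h1, xS_zero, mul_one]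
    exact real_six s a b c d

/-- the `3`-elements are conjugate to elements of `U` -/
theorem exists_conj_U [Finite F] {x : ↥(chevG2.group F)} {k : ℕ} (hx : x ^ 3 ^ k = 1) :
    ∃ g : ↥(chevG2.group F), ((g * x * g⁻¹ : ↥(chevG2.group F)) : GL chevG2.Idx F) ∈ chevG2.posUnipotent F := by
  classical
  have h3p : Fact (Nat.Prime 3) := ⟨Nat.prime_three⟩
  have := Fintype.ofFinite F
  set U := (chevG2.posUnipotent F).subgroupOf (chevG2.group F) with hU
  have hUc : Nat.card U = Fintype.card F ^ 6 := by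
    rw [hU, Nat.card_congr (Subgroup.subgroupOfEquivOfLe (posUnipotent_le_group inListG2 F)).toEquiv,
      Cfsg.Agent.S1027.result chevG2 inListG2]
    rfl
  have hG := Cfsg.Agent.S1059.result (F := F) (q := Fintype.card F) rfl
  obtain ⟨n, -, hn⟩ := FiniteField.card F 3
  have hUp : IsPGroup 3 U := IsPGroup.of_card (n := n * 6) (by rw [hUc, hn, pow_mul])
  have h3q : 3 ∣ Fintype.card F := by rw [hn]; exact dvd_pow_self 3 n.ne_zero
  have hind : ¬ 3 ∣ U.index := by
    have h1 := U.card_mul_index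
    rw [hUc, hG] at h1
    have hq0 : 0 < Fintype.card F ^ 6 := pow_pos Fintype.card_pos 6
    have hq1 : 1 ≤ Fintype.card F := Fintype.card_pos
    have h2 : U.index = (Fintype.card F ^ 2 - 1) * (Fintype.card F ^ 6 - 1) := by
      apply Nat.eq_of_mul_eq_mul_left hq0
      rw [h1, mul_assoc]
    rw [h2, Nat.prime_three.dvd_mul]
    have key : ∀ m : ℕ, 0 < m → ¬ 3 ∣ Fintype.card F ^ m - 1 := by
      intro m hm hd
      have h4 : 3 ∣ Fintype.card F ^ m := dvd_pow h3q hm.ne'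
      have h5 : 1 ≤ Fintype.card F ^ m := Nat.one_le_pow _ _ hq1
      have h6 := (Nat.dvd_sub_iff_right h5 h4).1 hd
      omega
    rintro (h | h)
    · exact key 2 (by decide) h
    · exact key 6 (by decide) h
  let P : Sylow 3 ↥(chevG2.group F) := hUp.toSylow hind
  have hP : (P : Subgroup ↥(chevG2.group F)) = U := rfl
  have hz : IsPGroup 3 (zpowers x) := by
    have h1 : orderOf x ∣ 3 ^ k := orderOf_dvd_of_pow_eq_one hx
    obtain ⟨j, -, hj⟩ := (Nat.dvd_prime_pow Nat.prime_three).1 h1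
    exact IsPGroup.of_card (n := j) (by rw [Nat.card_zpowers, hj])
  obtain ⟨Q, hQ⟩ := hz.exists_le_sylow
  obtain ⟨g, hg⟩ := MulAction.exists_smul_eq ↥(chevG2.group F) Q P
  refine ⟨g, ?_⟩
  have h1 : g * x * g⁻¹ ∈ (P : Subgroup ↥(chevG2.group F)) := by
    rw [← hg]
    exact ⟨x, hQ (mem_zpowers x), rfl⟩
  exact h1

/-- **Every element of order three of `G₂(3^k)` is real.** -/
theorem real_three [Finite F] {x : ↥(chevG2.group F)} (hx : x ^ 3 = 1) : Rl x := by
  obtain ⟨g, hg⟩ := exists_conj_U (k := 1) (x := x) (by rw [pow_one]; exact hx)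
  refine Rl.of_conj g rfl (real_of_pow_three hg ?_)
  rw [conj_pow, hx]
  group

end Cfsg.Agent.H583.GtUni
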